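/-
Krull–Schmidt for finite groups.
-/
import Mathlib

set_option autoImplicit false

namespace CfsgLib.KrullSchmidt

/-- Not an internal direct product of two nontrivial normal subgroups. -/
def Indecomposable (A : Type*) [Group A] : Prop :=
  ∀ H K : Subgroup A, H.Normal → K.Normal → H ⊓ K = ⊥ → H ⊔ K = ⊤ → H = ⊥ ∨ K = ⊥

/-- An endomorphism commuting with inner automorphisms. -/
def IsNormalEnd {A : Type*} [Group A] (f : A →* A) : Prop :=
  ∀ g x : A, f (g * x * g⁻¹) = g * f x * g⁻¹

variable {A : Type*} [Group A] [Finite A]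

theorem exists_idempotent_pow {M : Type*} [Monoid M] [Finite M] (x : M) :
    ∃ n, 0 < n ∧ x ^ n * x ^ n = x ^ n := by
  obtain ⟨a, b, hne, hab⟩ := Finite.exists_ne_map_eq_of_infinite (fun k : ℕ => x ^ k)
  wlog hlt : a < b generalizing a b
  · exact this b a hne.symm hab.symm (by omega)
  have hstep : ∀ i, a ≤ i → x ^ i = x ^ (i + (b - a)) := by
    intro i hi
    obtain ⟨c, rfl⟩ := Nat.exists_eq_add_of_le hi
    rw [pow_add, hab, ← pow_add]
    congr 1
    omega
  have hmul : ∀ (k i : ℕ), a ≤ i → x ^ i = x ^ (i + k * (b - a)) := by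
    intro k
    induction k with
    | zero => simp
    | succ k ih =>
      intro i hi
      rw [ih i hi, hstep (i + k * (b - a)) (by omega), add_assoc, ← Nat.succ_mul]
  refine ⟨(a + 1) * (b - a), Nat.mul_pos (Nat.succ_pos a) (by omega), ?_⟩
  rw [← pow_add]
  exact (hmul (a + 1) _ (le_trans (Nat.le_succ a) (Nat.le_mul_of_pos_right _ (by omega)))).symm

/-- Fitting's lemma: an injective or nilpotent normal endomorphism. -/
theorem injective_or_nilpotent (hA : Indecomposable A) {f : A →* A} (hf : IsNormalEnd f) :
    Function.Injective f ∨ ∃ n, ∀ x, f^[n] x = 1 := by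
  haveI : Finite (Function.End A) := inferInstanceAs (Finite (A → A))
  obtain ⟨n, hn, he⟩ := exists_idempotent_pow (show Function.End A from ⇑f)
  have hit : ∀ k, ((show Function.End A from ⇑f) ^ k : Function.End A) = (f^[k] : A → A) := by
    intro k
    induction k with
    | zero => rfl
    | succ k ih => rw [pow_succ, ih, Function.iterate_succ]; rfl
  rw [hit] at he
  let e : A →* A := MonoidHom.mk' f^[n] (iterate_map_mul f n)
  have he2 : ∀ x, e (e x) = e x := fun x => congrFun he x
  have hen : ∀ g x, e (g * x * g⁻¹) = g * e x * g⁻¹ := by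
    have : ∀ k g x, f^[k] (g * x * g⁻¹) = g * f^[k] x * g⁻¹ := by
      intro k
      induction k with
      | zero => intro g x; rfl
      | succ k ih => intro g x; rw [Function.iterate_succ_apply', ih, hf, Function.iterate_succ_apply']
    exact this n
  have hR : e.range.Normal := ⟨by rintro _ ⟨x, rfl⟩ g; exact ⟨g * x * g⁻¹, hen g x⟩⟩
  have hinf : e.ker ⊓ e.range = ⊥ := by
    rw [eq_bot_iff]
    rintro _ ⟨h1, x, rfl⟩
    have h2 : e (e x) = 1 := h1
    rw [he2] at h2
    exact h2
  have hsup : e.ker ⊔ e.range = ⊤ := by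
    refine eq_top_iff.2 fun x _ => ?_
    rw [show x = x * (e x)⁻¹ * e x by group]
    refine Subgroup.mul_mem_sup ?_ ⟨x, rfl⟩
    rw [MonoidHom.mem_ker, map_mul, map_inv, he2, mul_inv_cancel]
  rcases hA _ _ e.normal_ker hR hinf hsup with h | h
  · left
    have hinj : Function.Injective (f^[n]) := (MonoidHom.ker_eq_bot_iff e).1 h
    obtain ⟨k, rfl⟩ : ∃ k, n = k + 1 := ⟨n - 1, by omega⟩
    rw [Function.iterate_succ] at hinj
    exact hinj.of_comp
  · refine Or.inr ⟨n, fun x => ?_⟩
    exact Subgroup.mem_bot.1 (h ▸ ⟨x, rfl⟩ : e x ∈ (⊥ : Subgroup A))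

/-- If a pointwise product of two normal endomorphisms is injective, one of them is. -/
theorem injective_of_mul (hA : Indecomposable A) {f g θ : A →* A} (hf : IsNormalEnd f)
    (hθn : IsNormalEnd θ) (hθ : Function.Injective θ) (h : ∀ x, θ x = f x * g x) :
    Function.Injective f ∨ Function.Injective g := by
  have hb : Function.Bijective θ := ⟨hθ, Finite.surjective_of_injective hθ⟩
  set t := MulEquiv.ofBijective θ hb with ht
  have htn : ∀ y x : A, t.symm (y * x * y⁻¹) = y * t.symm x * y⁻¹ := fun y x => by
    apply t.injective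
    rw [t.apply_symm_apply]
    show _ = θ _
    rw [hθn, show θ (t.symm x) = x from t.apply_symm_apply x]
  let f' : A →* A := t.symm.toMonoidHom.comp f
  have hf' : IsNormalEnd f' := fun y x => by
    show t.symm (f (y * x * y⁻¹)) = _
    rw [hf, htn]
    rfl
  rcases injective_or_nilpotent hA hf' with hi | ⟨n, hn⟩
  · exact Or.inl (show Function.Injective (t.symm ∘ f) from hi).of_comp
  · right
    refine (injective_iff_map_eq_one g).2 fun x hx => ?_
    have h1 : f' x = x := by
      show t.symm (f x) = x
      rw [show f x = θ x by rw [h, hx, mul_one]]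
      exact t.symm_apply_apply x
    rw [← hn x]
    exact ((Function.iterate_fixed h1 n)).symm

section Product

variable {ι : Type*} [Fintype ι] [DecidableEq ι] {B : ι → Type*} [∀ k, Group (B k)]

/-- Projection onto the coordinates in `S`. -/
def restrictCoord (S : Finset ι) : (∀ k, B k) →* (∀ k, B k) :=
  MonoidHom.mk' (fun x k => if k ∈ S then x k else 1) fun x y => funext fun k => by
    by_cases h : k ∈ S <;> simp [h]

/-- An indecomposable direct factor passes isomorphically into one of the coordinates. -/
theorem exists_bijective {G : Type*} [Group G] (hA : Indecomposable A) [Nontrivial A]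
    (hB : ∀ k, Indecomposable (B k)) (e : G ≃* ∀ k, B k) (i : A →* G) (π : G →* A)
    (hπi : ∀ a, π (i a) = a) (hi : i.range.Normal) :
    ∃ j, Function.Bijective (fun a => e (i a) j) ∧
      Function.Injective (fun b => π (e.symm (Pi.mulSingle j b))) := by
  let Φ : Finset ι → (A →* A) := fun S =>
    π.comp (e.symm.toMonoidHom.comp ((restrictCoord S).comp (e.toMonoidHom.comp i)))
  have hn : ∀ S, IsNormalEnd (Φ S) := by
    intro S g x
    show π (e.symm (restrictCoord S (e (i (g * x * g⁻¹))))) = g * π (e.symm (restrictCoord S (e (i x)))) * g⁻¹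
    have hr : restrictCoord S (e (i (g * x * g⁻¹)))
        = e (i g) * restrictCoord S (e (i x)) * (e (i g))⁻¹ := by
      funext k
      by_cases hk : k ∈ S <;> simp [restrictCoord, hk]
    rw [hr]
    simp only [map_mul, map_inv, e.symm_apply_apply, hπi]
  have huniv : ∀ x, Φ Finset.univ x = x := by
    intro x
    show π (e.symm (restrictCoord Finset.univ (e (i x)))) = x
    rw [show restrictCoord Finset.univ (e (i x)) = e (i x) from funext fun k => by simp [restrictCoord],
      e.symm_apply_apply, hπi]
  have key : ∀ S, Function.Injective (Φ S) → ∃ j ∈ S, Function.Injective (Φ {j}) := by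
    intro S
    induction S using Finset.induction_on with
    | empty =>
      intro h
      obtain ⟨x, hx⟩ := exists_ne (1 : A)
      refine absurd (h ?_) hx
      show π (e.symm (restrictCoord ∅ (e (i x)))) = π (e.symm (restrictCoord ∅ (e (i 1))))
      congr 2
    | @insert j S hj ih =>
      intro h
      have hsplit : ∀ x, Φ (insert j S) x = Φ {j} x * Φ S x := by
        intro x
        show π (e.symm (restrictCoord _ (e (i x)))) = π (e.symm (restrictCoord _ (e (i x)))) *
          π (e.symm (restrictCoord _ (e (i x))))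
        rw [← map_mul, ← map_mul]
        congr 2
        funext k
        by_cases hk : k = j
        · subst hk; simp [restrictCoord, hj]
        · by_cases hkS : k ∈ S <;> simp [restrictCoord, hk, hkS]
      rcases injective_of_mul hA (hn {j}) (hn _) h hsplit with h1 | h1
      · exact ⟨j, Finset.mem_insert_self _ _, h1⟩
      · obtain ⟨k, hk, hk2⟩ := ih h1
        exact ⟨k, Finset.mem_insert_of_mem hk, hk2⟩
  obtain ⟨j, -, hj⟩ := key Finset.univ (fun a b h => by rwa [huniv, huniv] at h)
  refine ⟨j, ?_⟩
  let α : A →* B j := (Pi.evalMonoidHom B j).comp (e.toMonoidHom.comp i)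
  let β : B j →* A := π.comp (e.symm.toMonoidHom.comp (MonoidHom.mulSingle B j))
  have hcomp : ∀ a, β (α a) = Φ {j} a := by
    intro a
    show π (e.symm (Pi.mulSingle j (e (i a) j))) = π (e.symm (restrictCoord {j} (e (i a))))
    congr 2
    funext k
    by_cases hk : k = j
    · subst hk; simp [restrictCoord]
    · simp [restrictCoord, hk]
  have hinj : Function.Injective α := fun a b h => hj (by rw [← hcomp, ← hcomp, h])
  have hsurjΦ : Function.Surjective (Φ {j}) := Finite.surjective_of_injective hj
  have hR : α.range.Normal := by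
    have h1 : α.range = i.range.map ((Pi.evalMonoidHom B j).comp e.toMonoidHom) := by
      rw [MonoidHom.range_eq_map, MonoidHom.range_eq_map, Subgroup.map_map]
      rfl
    rw [h1]
    exact hi.map _ ((Function.surjective_eval j).comp e.surjective)
  have hinf : β.ker ⊓ α.range = ⊥ := by
    rw [eq_bot_iff]
    rintro _ ⟨h1, a, rfl⟩
    have h2 : β (α a) = 1 := h1
    rw [hcomp] at h2
    rw [Subgroup.mem_bot, (injective_iff_map_eq_one _).1 hj a h2, map_one]
  have hsup : β.ker ⊔ α.range = ⊤ := by
    refine eq_top_iff.2 fun b _ => ?_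
    obtain ⟨a, ha⟩ := hsurjΦ (β b)
    rw [show b = b * (α a)⁻¹ * α a by group]
    refine Subgroup.mul_mem_sup ?_ ⟨a, rfl⟩
    rw [MonoidHom.mem_ker, map_mul, map_inv, hcomp, ha, mul_inv_cancel]
  rcases hB j _ _ β.normal_ker hR hinf hsup with h | h
  · rw [h, bot_sup_eq] at hsup
    exact ⟨⟨hinj, MonoidHom.range_eq_top.1 hsup⟩, (MonoidHom.ker_eq_bot_iff β).1 h⟩
  · obtain ⟨x, hx⟩ := exists_ne (1 : A)
    exact absurd (hinj ((Subgroup.mem_bot.1 (h ▸ ⟨x, rfl⟩ : α x ∈ (⊥ : Subgroup (B j)))).trans
      (map_one α).symm)) hx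

end Product

end CfsgLib.KrullSchmidt
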